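import Mathlib

/-! S2543 farm, piece PA: concrete facts on `alternatingGroup (Fin 5)`. -/

set_option autoImplicit false

namespace Cfsg.Agent.Lib.Helper40.L11

theorem a5_pow_four : ∀ x : alternatingGroup (Fin 5), x ^ 4 = 1 → x ^ 2 = 1 := by
  decide +kernel

theorem a5_normalizer_aux : ∀ a b : alternatingGroup (Fin 5), a ≠ 1 → b ≠ 1 → a ≠ b →
    a ^ 2 = 1 → b ^ 2 = 1 → (a * b) ^ 2 = 1 →
    (Finset.univ.filter (fun g : alternatingGroup (Fin 5) =>
      ∀ h ∈ ({1, a, b, a * b} : Finset (alternatingGroup (Fin 5))),
        g * h * g⁻¹ ∈ ({1, a, b, a * b} : Finset (alternatingGroup (Fin 5))))).card = 12 := by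
  decide +kernel

/-- in a finite group, one inclusion suffices for the normaliser -/
theorem mem_normalizer_of_forall {G : Type*} [Group G] (V : Subgroup G) [Finite V] (g : G)
    (h : ∀ x ∈ V, g * x * g⁻¹ ∈ V) : g ∈ Subgroup.normalizer (V : Set G) := by
  rw [Subgroup.mem_normalizer_iff]
  intro x
  refine ⟨h x, fun hx => ?_⟩
  let f : V → V := fun v => ⟨g * v.1 * g⁻¹, h v.1 v.2⟩
  have hinj : Function.Injective f := by
    intro u v huv
    have : g * u.1 * g⁻¹ = g * v.1 * g⁻¹ := congrArg Subtype.val huv
    apply Subtype.ext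
    simpa using this
  obtain ⟨v, hv⟩ := (Finite.injective_iff_surjective.mp hinj) ⟨_, hx⟩
  have : g * v.1 * g⁻¹ = g * x * g⁻¹ := congrArg Subtype.val hv
  have e : v.1 = x := by simpa using this
  rw [← e]
  exact v.2

/-- The normaliser of a subgroup of order 4 of `A₅` has order 12. -/
theorem a5_normalizer_card (V : Subgroup (alternatingGroup (Fin 5))) (hV : Nat.card V = 4) :
    Nat.card (Subgroup.normalizer (V : Set (alternatingGroup (Fin 5)))) = 12 := by
  classical
  have hsq : ∀ x ∈ V, x ^ 2 = 1 := by
    intro x hx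
    apply a5_pow_four
    have := pow_card_eq_one' (x := (⟨x, hx⟩ : V))
    rw [hV] at this
    exact congrArg Subtype.val this
  -- the finset of the elements of `V`
  let S : Finset (alternatingGroup (Fin 5)) := Finset.univ.filter (fun x => x ∈ V)
  have hS : S.card = 4 := by
    rw [← hV, Nat.card_eq_fintype_card, Fintype.card_subtype]
  have hmem : ∀ x, x ∈ S ↔ x ∈ V := by
    intro x
    simp [S]
  obtain ⟨a, haS, ha1⟩ : ∃ a ∈ S, a ≠ 1 := by
    by_contra hcon
    push_neg at hcon
    have : S ⊆ {1} := fun x hx => Finset.mem_singleton.mpr (hcon x hx)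
    have := Finset.card_le_card this
    rw [hS] at this
    simp at this
  obtain ⟨b, hbS, hb⟩ : ∃ b ∈ S, b ∉ ({1, a} : Finset (alternatingGroup (Fin 5))) := by
    by_contra hcon
    push_neg at hcon
    have h1 : S ⊆ {1, a} := fun x hx => hcon x hx
    have h2 := Finset.card_le_card h1
    have h3 : ({1, a} : Finset (alternatingGroup (Fin 5))).card ≤ 2 := Finset.card_le_two
    omega
  have hb1 : b ≠ 1 := fun h => hb (by simp [h])
  have hab : a ≠ b := fun h => hb (by simp [h])
  have haV := (hmem a).1 haS
  have hbV := (hmem b).1 hbS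
  have ha2 := hsq a haV
  have hb2 := hsq b hbV
  have hab2 := hsq (a * b) (V.mul_mem haV hbV)
  have hSeq : ({1, a, b, a * b} : Finset (alternatingGroup (Fin 5))) = S := by
    apply Finset.eq_of_subset_of_card_le
    · intro x hx
      simp only [Finset.mem_insert, Finset.mem_singleton] at hx
      rw [hmem]
      rcases hx with rfl | rfl | rfl | rfl
      · exact V.one_mem
      · exact haV
      · exact hbV
      · exact V.mul_mem haV hbV
    · rw [hS]
      have hainv : a⁻¹ = a := by
        rw [inv_eq_iff_mul_eq_one, ← pow_two, ha2]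
      have n1 : (1 : alternatingGroup (Fin 5)) ∉ ({a, b, a * b} : Finset _) := by
        simp only [Finset.mem_insert, Finset.mem_singleton, not_or]
        refine ⟨fun h => ha1 h.symm, fun h => hb1 h.symm, fun h => ?_⟩
        have : b = a⁻¹ := eq_inv_of_mul_eq_one_right h.symm
        rw [hainv] at this
        exact hab this.symm
      have n2 : a ∉ ({b, a * b} : Finset (alternatingGroup (Fin 5))) := by
        simp only [Finset.mem_insert, Finset.mem_singleton, not_or]
        refine ⟨hab, fun h => hb1 ?_⟩
        simpa using h.symm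
      have n3 : b ∉ ({a * b} : Finset (alternatingGroup (Fin 5))) := by
        simp only [Finset.mem_singleton]
        intro h
        apply ha1
        simpa using h.symm
      rw [Finset.card_insert_of_notMem n1, Finset.card_insert_of_notMem n2,
        Finset.card_insert_of_notMem n3, Finset.card_singleton]
  have key := a5_normalizer_aux a b ha1 hb1 hab ha2 hb2 hab2
  rw [hSeq] at key
  rw [← key, Nat.card_eq_fintype_card, Fintype.card_subtype]
  congr 1
  ext g
  simp only [Finset.mem_filter, Finset.mem_univ, true_and]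
  constructor
  · intro hg h hh
    rw [hmem] at hh ⊢
    exact (Subgroup.mem_normalizer_iff.mp hg h).mp hh
  · intro hg
    apply mem_normalizer_of_forall
    intro x hx
    have := hg x ((hmem x).2 hx)
    exact (hmem _).1 this

end Cfsg.Agent.Lib.Helper40.L11
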