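import Mathlib

/-! S2543 farm, piece PB: an element of order 3 of `A₅` is inverted by (at least) 3 elements. -/

set_option autoImplicit false

namespace Cfsg.Agent.Lib.Helper40.L11

theorem a5_inverters_aux : ∀ y : alternatingGroup (Fin 5), y ^ 3 = 1 → y ≠ 1 →
    3 ≤ (Finset.univ.filter (fun s : alternatingGroup (Fin 5) => s * y * s⁻¹ = y⁻¹)).card := by
  decide +kernel

theorem a5_inverters (y : alternatingGroup (Fin 5)) (hy : orderOf y = 3) :
    3 ≤ Nat.card {s : alternatingGroup (Fin 5) // s * y * s⁻¹ = y⁻¹} := by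
  have h1 : y ^ 3 = 1 := by rw [← hy]; exact pow_orderOf_eq_one y
  have h2 : y ≠ 1 := by
    rintro rfl
    rw [orderOf_one] at hy
    omega
  rw [Nat.card_eq_fintype_card, Fintype.card_subtype]
  exact a5_inverters_aux y h1 h2

end Cfsg.Agent.Lib.Helper40.L11
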