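import Mathlib
import Cfsg.Agent.Lib.Helper40.L11.PA
import Cfsg.Agent.Lib.Helper40.L11.PB

/-! S2543 farm, piece PC: transport of PA, PB to a subgroup `H ≤ G` with `H ≃* A₅`. -/

set_option autoImplicit false

namespace Cfsg.Agent.Lib.Helper40.L11

variable {G : Type*} [Group G]

theorem card_of_isA5 {H : Subgroup G} (h : Nonempty (H ≃* alternatingGroup (Fin 5))) :
    Nat.card H = 60 := by
  obtain ⟨e⟩ := h
  rw [Nat.card_congr e.toEquiv, Nat.card_eq_fintype_card]
  have h2 := two_mul_card_alternatingGroup (α := Fin 5)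
  rw [Fintype.card_perm, Fintype.card_fin] at h2
  have : Nat.factorial 5 = 120 := by decide
  omega

theorem normalizer_inf_card {H V : Subgroup G} (h : Nonempty (H ≃* alternatingGroup (Fin 5)))
    (hVH : V ≤ H) (hV : Nat.card V = 4) :
    Nat.card (Subgroup.normalizer (V : Set G) ⊓ H : Subgroup G) = 12 := by
  obtain ⟨e⟩ := h
  have h1 : Nat.card (Subgroup.normalizer (V : Set G) ⊓ H : Subgroup G) =
      Nat.card ((Subgroup.normalizer (V : Set G)).subgroupOf H) := by
    rw [← Subgroup.inf_subgroupOf_right]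
    exact (Nat.card_congr (Subgroup.subgroupOfEquivOfLe inf_le_right).toEquiv).symm
  rw [h1, Subgroup.subgroupOf_normalizer_eq hVH]
  have h2 := Subgroup.map_equiv_normalizer_eq (V.subgroupOf H) e
  have h3 : Nat.card ((V.subgroupOf H).map e.toMonoidHom) = 4 := by
    rw [Subgroup.card_map_of_injective e.injective,
      Nat.card_congr (Subgroup.subgroupOfEquivOfLe hVH).toEquiv, hV]
  have h4 := a5_normalizer_card _ h3
  rw [← h2, Subgroup.card_map_of_injective e.injective] at h4
  exact h4

theorem inverters_in {H : Subgroup G} (h : Nonempty (H ≃* alternatingGroup (Fin 5))) {y : G}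
    (hyH : y ∈ H) (hy : orderOf y = 3) :
    3 ≤ Nat.card {s : G // s ∈ H ∧ s * y * s⁻¹ = y⁻¹} := by
  obtain ⟨e⟩ := h
  have hy' : orderOf (e ⟨y, hyH⟩) = 3 := by
    rw [MulEquiv.orderOf_eq, Subgroup.orderOf_mk, hy]
  have h1 := a5_inverters _ hy'
  let φ : {s : alternatingGroup (Fin 5) // s * e ⟨y, hyH⟩ * s⁻¹ = (e ⟨y, hyH⟩)⁻¹} ≃
      {s : G // s ∈ H ∧ s * y * s⁻¹ = y⁻¹} :=
    { toFun := fun s => ⟨(e.symm s.1 : G), (e.symm s.1).2, by
        have h2 := congrArg e.symm s.2
        simp only [map_mul, map_inv, MulEquiv.symm_apply_apply] at h2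
        have h3 := congrArg Subtype.val h2
        simpa using h3⟩
      invFun := fun t => ⟨e ⟨t.1, t.2.1⟩, by
        rw [← map_inv, ← map_inv, ← map_mul, ← map_mul]
        congr 1
        apply Subtype.ext
        simpa using t.2.2⟩
      left_inv := fun s => by
        apply Subtype.ext
        simp
      right_inv := fun t => by
        apply Subtype.ext
        simp }
  rw [← Nat.card_congr φ]
  exact h1

end Cfsg.Agent.Lib.Helper40.L11
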