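import Mathlib

/-! S2543 farm, piece PD: three small abstract lemmas. -/

set_option autoImplicit false

namespace Cfsg.Agent.Lib.Helper40.L11

variable {G : Type*} [Group G]

/-- order of `T ⊔ ⟨s⟩` is a multiple of 12, bigger than 12, dividing 60. -/
theorem sup_eq_of_twelve {H T : Subgroup G} (hH : Nat.card H = 60) (hTH : T ≤ H)
    (hT : Nat.card T = 12) {s : G} (hs : s ∈ H) (hsT : s ∉ T) :
    T ⊔ Subgroup.zpowers s = H := by
  have hfH : Finite H := Nat.finite_of_card_ne_zero (by rw [hH]; norm_num)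
  have hle : T ⊔ Subgroup.zpowers s ≤ H := sup_le hTH (by rw [Subgroup.zpowers_le]; exact hs)
  have hfK : Finite (T ⊔ Subgroup.zpowers s : Subgroup G) :=
    Finite.of_injective _ (Subgroup.inclusion_injective hle)
  have d1 : 12 ∣ Nat.card (T ⊔ Subgroup.zpowers s : Subgroup G) := by
    rw [← hT]; exact Subgroup.card_dvd_of_le le_sup_left
  have d2 : Nat.card (T ⊔ Subgroup.zpowers s : Subgroup G) ∣ 60 := by
    rw [← hH]; exact Subgroup.card_dvd_of_le hle
  have hne : Nat.card (T ⊔ Subgroup.zpowers s : Subgroup G) ≠ 12 := by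
    intro h
    have : T = T ⊔ Subgroup.zpowers s :=
      Subgroup.eq_of_le_of_card_ge le_sup_left (by rw [h, hT])
    apply hsT
    rw [this]
    exact (le_sup_right : Subgroup.zpowers s ≤ T ⊔ Subgroup.zpowers s)
      (Subgroup.mem_zpowers s)
  have h60 : Nat.card (T ⊔ Subgroup.zpowers s : Subgroup G) = 60 := by
    obtain ⟨m, hm⟩ := d1
    rw [hm] at d2 hne ⊢
    have hm5 : 12 * m ≤ 60 := Nat.le_of_dvd (by norm_num) d2
    have : m ≤ 5 := by omega
    interval_cases m <;> omega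
  exact Subgroup.eq_of_le_of_card_ge hle (by rw [h60, hH])

/-- `T/V` has order 3, so is abelian: `s y s⁻¹ V = y V`; if `s y s⁻¹ = y⁻¹` then `y² ∈ V`, so
`y = (y²)² ∈ V`, impossible since `3 ∤ 4`. -/
theorem not_invert_in_twelve {T V : Subgroup G} (hT : Nat.card T = 12) (hV : Nat.card V = 4)
    (hVT : V ≤ T) (hN : T ≤ Subgroup.normalizer (V : Set G)) {y s : G} (hy : y ∈ T)
    (hy3 : orderOf y = 3) (hs : s ∈ T) : s * y * s⁻¹ ≠ y⁻¹ := by
  intro hinv
  have hn : (V.subgroupOf T).Normal := (Subgroup.normal_subgroupOf_iff_le_normalizer hVT).mpr hN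
  have hc : Nat.card (V.subgroupOf T) = 4 := by
    rw [Nat.card_congr (Subgroup.subgroupOfEquivOfLe hVT).toEquiv, hV]
  have hQ : Nat.card (T ⧸ V.subgroupOf T) = 3 := by
    have := Subgroup.card_eq_card_quotient_mul_card_subgroup (V.subgroupOf T)
    rw [hT, hc] at this
    omega
  have : Fact (Nat.Prime 3) := ⟨Nat.prime_three⟩
  have hcyc : IsCyclic (T ⧸ V.subgroupOf T) := isCyclic_of_prime_card hQ
  have hcomm : ∀ a b : T ⧸ V.subgroupOf T, a * b = b * a :=
    fun a b => (IsCyclic.isMulCommutative).is_comm.comm a b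
  let y' : T := ⟨y, hy⟩
  let s' : T := ⟨s, hs⟩
  have e1 : s' * y' * s'⁻¹ = y'⁻¹ := Subtype.ext hinv
  have e2 : ((s' * y' * s'⁻¹ : T) : T ⧸ V.subgroupOf T) = (y' : T ⧸ V.subgroupOf T) := by
    rw [QuotientGroup.mk_mul, QuotientGroup.mk_mul, QuotientGroup.mk_inv,
      hcomm (s' : T ⧸ V.subgroupOf T) (y' : T ⧸ V.subgroupOf T),
      mul_inv_cancel_right]
  rw [e1, QuotientGroup.eq] at e2
  -- `y'⁻¹⁻¹ * y' ∈ V`
  have h2 : y * y ∈ V := by
    have : (y'⁻¹)⁻¹ * y' ∈ V.subgroupOf T := e2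
    rw [inv_inv, Subgroup.mem_subgroupOf] at this
    exact this
  have h3 : y ^ 3 = 1 := by rw [← hy3]; exact pow_orderOf_eq_one y
  have h4 : y ∈ V := by
    have : y = (y * y) * (y * y) := by
      calc y = y ^ 3 * y := by rw [h3, one_mul]
        _ = (y * y) * (y * y) := by simp only [pow_succ, pow_zero, one_mul, mul_assoc]
    rw [this]
    exact V.mul_mem h2 h2
  have h5 : orderOf y ∣ Nat.card V := by
    have := orderOf_dvd_natCard (⟨y, h4⟩ : V)
    rwa [Subgroup.orderOf_mk] at this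
  rw [hy3, hV] at h5
  revert h5
  decide

/-- the set of inverters is empty or a coset of the centraliser. -/
theorem card_inverters_le [Finite G] (y : G) :
    Nat.card {s : G // s * y * s⁻¹ = y⁻¹} ≤ Nat.card (Subgroup.centralizer ({y} : Set G)) := by
  by_cases hne : Nonempty {s : G // s * y * s⁻¹ = y⁻¹}
  · obtain ⟨s0, hs0⟩ := hne
    have key : ∀ s : {s : G // s * y * s⁻¹ = y⁻¹}, s0⁻¹ * s.1 ∈ Subgroup.centralizer ({y} : Set G) := by
      intro s
      rw [Subgroup.mem_centralizer_singleton_iff]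
      have h1 : s.1 * y = y⁻¹ * s.1 := by
        have := s.2
        rw [mul_inv_eq_iff_eq_mul] at this
        exact this
      have h2 : s0 * y = y⁻¹ * s0 := by
        rw [mul_inv_eq_iff_eq_mul] at hs0
        exact hs0
      have h3 : s0⁻¹ * y⁻¹ = y * s0⁻¹ := by
        have : y⁻¹ = s0 * y * s0⁻¹ := hs0.symm
        rw [this]
        group
      calc s0⁻¹ * s.1 * y = s0⁻¹ * (s.1 * y) := by group
        _ = s0⁻¹ * (y⁻¹ * s.1) := by rw [h1]
        _ = (s0⁻¹ * y⁻¹) * s.1 := by group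
        _ = y * s0⁻¹ * s.1 := by rw [h3]
        _ = y * (s0⁻¹ * s.1) := by group
    apply Nat.card_le_card_of_injective
      (fun s : {s : G // s * y * s⁻¹ = y⁻¹} => (⟨s0⁻¹ * s.1, key s⟩ : Subgroup.centralizer ({y} : Set G)))
    intro s t hst
    have : s0⁻¹ * s.1 = s0⁻¹ * t.1 := congrArg Subtype.val hst
    exact Subtype.ext (mul_left_cancel this)
  · rw [not_nonempty_iff] at hne
    rw [Nat.card_of_isEmpty]
    exact Nat.zero_le _

end Cfsg.Agent.Lib.Helper40.L11
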