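import Mathlib

/-! S2543 farm, piece PE: self-normalising subgroups of index 11, size of a class of subgroups. -/

set_option autoImplicit false
open scoped Pointwise

namespace Cfsg.Agent.Lib.Helper40.L11

variable {G : Type*} [Group G]

/-- index 11 is prime so `N_G(H)` is `H` or `G`; the latter contradicts simplicity. -/
theorem normalizer_eq_self [Finite G] [IsSimpleGroup G] (h660 : Nat.card G = 660)
    {H : Subgroup G} (hH : Nat.card H = 60) : Subgroup.normalizer (H : Set G) = H := by
  have hle : H ≤ Subgroup.normalizer (H : Set G) := Subgroup.le_normalizer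
  have d1 : 60 ∣ Nat.card (Subgroup.normalizer (H : Set G)) := by
    rw [← hH]; exact Subgroup.card_dvd_of_le hle
  have d2 : Nat.card (Subgroup.normalizer (H : Set G)) ∣ 660 := by
    rw [← h660]; exact Subgroup.card_subgroup_dvd_card _
  have hne : Nat.card (Subgroup.normalizer (H : Set G)) ≠ 660 := by
    intro h
    have htop : Subgroup.normalizer (H : Set G) = ⊤ := by
      rw [← Subgroup.card_eq_iff_eq_top, h, h660]
    have hn : H.Normal := Subgroup.normalizer_eq_top_iff.mp htop
    rcases hn.eq_bot_or_eq_top with rfl | rfl
    · rw [Subgroup.card_bot] at hH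
      omega
    · rw [Subgroup.card_top, h660] at hH
      omega
  have h60 : Nat.card (Subgroup.normalizer (H : Set G)) = 60 := by
    obtain ⟨m, hm⟩ := d1
    rw [hm] at d2 hne ⊢
    have hm5 : 60 * m ≤ 660 := Nat.le_of_dvd (by norm_num) d2
    have : m ≤ 11 := by omega
    interval_cases m <;> omega
  exact (Subgroup.eq_of_le_of_card_ge hle (by rw [h60, hH])).symm

theorem conj_smul_eq_iff (H : Subgroup G) (g : G) :
    MulAut.conj g • H = H ↔ g ∈ Subgroup.normalizer (H : Set G) := by
  rw [Subgroup.mem_normalizer_iff]
  constructor
  · intro h x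
    have := Subgroup.smul_mem_pointwise_smul_iff (a := MulAut.conj g) (S := H) (x := x)
    rw [h, MulAut.smul_def, MulAut.conj_apply] at this
    exact this.symm
  · intro h
    ext x
    rw [Subgroup.mem_pointwise_smul_iff_inv_smul_mem, MulAut.smul_def, ← map_inv,
      MulAut.conj_apply, inv_inv, h (g⁻¹ * x * g)]
    have : g * (g⁻¹ * x * g) * g⁻¹ = x := by group
    rw [this]

/-- orbit-stabiliser for the conjugation action on subgroups. -/
theorem card_conjugates [Finite G] (H : Subgroup G) :
    Nat.card {K : Subgroup G // ∃ g : G, MulAut.conj g • H = K} =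
      (Subgroup.normalizer (H : Set G)).index := by
  letI : MulAction G (Subgroup G) := MulAction.compHom (Subgroup G) (MulAut.conj : G →* MulAut G)
  have h1 : MulAction.stabilizer G H = Subgroup.normalizer (H : Set G) := by
    ext g
    rw [MulAction.mem_stabilizer_iff]
    exact conj_smul_eq_iff H g
  rw [← h1, MulAction.index_stabilizer, ← Nat.card_coe_set_eq]
  rfl

end Cfsg.Agent.Lib.Helper40.L11
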