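import Mathlib
import Cfsg.Agent.S0808
import Cfsg.Agent.Lib.Helper40.L11.PC
import Cfsg.Agent.Lib.Helper40.L11.PD
import Cfsg.Agent.Lib.Helper40.L11.PE

/-! S2543: abstract core. -/

set_option autoImplicit false
open scoped Pointwise

namespace Cfsg.Agent.Lib.Helper40.L11

variable {G : Type*} [Group G]

theorem normalizer_le_of_isA5 [Finite G]
    (hN : ∀ V : Subgroup G, Nat.card V = 4 → Nat.card (Subgroup.normalizer (V : Set G)) = 12)
    {V H : Subgroup G} (hV : Nat.card V = 4) (h : Nonempty (H ≃* alternatingGroup (Fin 5)))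
    (hVH : V ≤ H) : Subgroup.normalizer (V : Set G) ≤ H := by
  have h1 := normalizer_inf_card h hVH hV
  have h2 := hN V hV
  have h3 : (Subgroup.normalizer (V : Set G) ⊓ H) = Subgroup.normalizer (V : Set G) :=
    Subgroup.eq_of_le_of_card_ge inf_le_left (by rw [h1, h2])
  rw [← h3]
  exact inf_le_right

theorem eq_or_eq_of_over [Finite G]
    (hN : ∀ V : Subgroup G, Nat.card V = 4 → Nat.card (Subgroup.normalizer (V : Set G)) = 12)
    (hC : ∀ y : G, orderOf y = 3 → Nat.card (Subgroup.centralizer ({y} : Set G)) ≤ 6)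
    {V0 H1 H2 H : Subgroup G} (hV0 : Nat.card V0 = 4)
    (h1 : Nonempty (H1 ≃* alternatingGroup (Fin 5)))
    (h2 : Nonempty (H2 ≃* alternatingGroup (Fin 5)))
    (h : Nonempty (H ≃* alternatingGroup (Fin 5))) (h12 : H1 ≠ H2)
    (hV1 : V0 ≤ H1) (hV2 : V0 ≤ H2) (hV : V0 ≤ H) : H = H1 ∨ H = H2 := by
  classical
  by_contra hcon
  push Not at hcon
  obtain ⟨hH1, hH2⟩ := hcon
  have hT : Nat.card (Subgroup.normalizer (V0 : Set G)) = 12 := hN V0 hV0
  have hVT : V0 ≤ Subgroup.normalizer (V0 : Set G) := Subgroup.le_normalizer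
  have : Fact (Nat.Prime 3) := ⟨Nat.prime_three⟩
  obtain ⟨y', hy'⟩ := exists_prime_orderOf_dvd_card' (G := Subgroup.normalizer (V0 : Set G)) 3
    (by rw [hT]; norm_num)
  have hy3 : orderOf (y' : G) = 3 := by rw [Subgroup.orderOf_coe]; exact hy'
  have hyT : (y' : G) ∈ Subgroup.normalizer (V0 : Set G) := y'.2
  generalize (y' : G) = y at hy3 hyT
  let S : Subgroup G → Set G := fun K => {s | s ∈ K ∧ s * y * s⁻¹ = y⁻¹}
  have hS3 : ∀ K : Subgroup G, Nonempty (K ≃* alternatingGroup (Fin 5)) → V0 ≤ K →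
      3 ≤ (S K).ncard := by
    intro K hK hVK
    have := inverters_in hK (normalizer_le_of_isA5 hN hV0 hK hVK hyT) hy3
    rwa [← Nat.card_coe_set_eq]
  have hgen : ∀ K : Subgroup G, Nonempty (K ≃* alternatingGroup (Fin 5)) → V0 ≤ K →
      ∀ s ∈ S K, Subgroup.normalizer (V0 : Set G) ⊔ Subgroup.zpowers s = K := by
    intro K hK hVK s hs
    refine sup_eq_of_twelve (card_of_isA5 hK) (normalizer_le_of_isA5 hN hV0 hK hVK) hT hs.1 ?_
    intro hsT
    exact not_invert_in_twelve hT hV0 hVT le_rfl hyT hy3 hsT hs.2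
  have hdisj : ∀ K K' : Subgroup G, Nonempty (K ≃* alternatingGroup (Fin 5)) → V0 ≤ K →
      Nonempty (K' ≃* alternatingGroup (Fin 5)) → V0 ≤ K' → K ≠ K' → Disjoint (S K) (S K') := by
    intro K K' hK hVK hK' hVK' hne
    rw [Set.disjoint_left]
    intro s hs hs'
    exact hne ((hgen K hK hVK s hs).symm.trans (hgen K' hK' hVK' s hs'))
  have hsub : (S H1 ∪ S H2) ∪ S H ⊆ {s | s * y * s⁻¹ = y⁻¹} := by
    intro s hs
    rcases hs with (hs | hs) | hs <;> exact hs.2
  have hle : ({s | s * y * s⁻¹ = y⁻¹} : Set G).ncard ≤ 6 := by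
    rw [← Nat.card_coe_set_eq]
    exact (card_inverters_le y).trans (hC y hy3)
  have hu1 : (S H1 ∪ S H2).ncard = (S H1).ncard + (S H2).ncard :=
    Set.ncard_union_eq (hdisj H1 H2 h1 hV1 h2 hV2 h12) (Set.toFinite _) (Set.toFinite _)
  have hu2 : ((S H1 ∪ S H2) ∪ S H).ncard = (S H1 ∪ S H2).ncard + (S H).ncard := by
    refine Set.ncard_union_eq ?_ (Set.toFinite _) (Set.toFinite _)
    rw [Set.disjoint_union_left]
    exact ⟨hdisj H1 H h1 hV1 h hV (Ne.symm hH1), hdisj H2 H h2 hV2 h hV (Ne.symm hH2)⟩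
  have hmono := Set.ncard_le_ncard hsub (Set.toFinite _)
  have a1 := hS3 H1 h1 hV1
  have a2 := hS3 H2 h2 hV2
  have a3 := hS3 H h hV
  omega


theorem isA5_smul {H : Subgroup G} (h : Nonempty (H ≃* alternatingGroup (Fin 5))) (g : G) :
    Nonempty ((MulAut.conj g • H : Subgroup G) ≃* alternatingGroup (Fin 5)) := by
  obtain ⟨e⟩ := h
  exact ⟨(Subgroup.equivSMul (MulAut.conj g) H).symm.trans e⟩

theorem card_smul (V : Subgroup G) (g : G) :
    Nat.card (MulAut.conj g • V : Subgroup G) = Nat.card V :=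
  (Nat.card_congr (Subgroup.equivSMul (MulAut.conj g) V).toEquiv).symm

/-- Sylow conjugacy of subgroups of order 4 inside a subgroup. -/
theorem conj_four_in {H V W : Subgroup G} [Finite H] (h8 : ¬ 8 ∣ Nat.card H) (hVH : V ≤ H)
    (hWH : W ≤ H) (hV : Nat.card V = 4) (hW : Nat.card W = 4) :
    ∃ h ∈ H, MulAut.conj h • V = W := by
  have c1 : Nat.card (V.subgroupOf H) = 4 := by
    rw [← hV]; exact Nat.card_congr (Subgroup.subgroupOfEquivOfLe hVH).toEquiv
  have c2 : Nat.card (W.subgroupOf H) = 4 := by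
    rw [← hW]; exact Nat.card_congr (Subgroup.subgroupOfEquivOfLe hWH).toEquiv
  obtain ⟨h, hh⟩ := Cfsg.Agent.S0808.conj_of_card_four_of_not_eight_dvd h8 _ _ c1 c2
  refine ⟨h, h.2, ?_⟩
  have hfW : Finite W := Nat.finite_of_card_ne_zero (by rw [hW]; norm_num)
  apply Subgroup.eq_of_le_of_card_ge
  · intro x hx
    obtain ⟨v, hv, rfl⟩ := (Subgroup.mem_smul_pointwise_iff_exists _ _ _).mp hx
    have h4 : (MulAut.conj h).toMonoidHom ⟨v, hVH hv⟩ ∈ W.subgroupOf H := by
      rw [hh]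
      exact Subgroup.mem_map_of_mem _ (Subgroup.mem_subgroupOf.mpr hv)
    exact Subgroup.mem_subgroupOf.mp h4
  · rw [card_smul, hV, hW]

theorem smul_eq_self_of_mem {H : Subgroup G} {g : G} (hg : g ∈ H) : MulAut.conj g • H = H :=
  Subgroup.conj_smul_eq_self_of_mem hg

theorem main_abstract [Finite G] [IsSimpleGroup G] (h660 : Nat.card G = 660)
    (hN : ∀ V : Subgroup G, Nat.card V = 4 → Nat.card (Subgroup.normalizer (V : Set G)) = 12)
    (hC : ∀ y : G, orderOf y = 3 → Nat.card (Subgroup.centralizer ({y} : Set G)) ≤ 6)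
    {V0 H1 H2 : Subgroup G} (hV0 : Nat.card V0 = 4)
    (h1 : Nonempty (H1 ≃* alternatingGroup (Fin 5)))
    (h2 : Nonempty (H2 ≃* alternatingGroup (Fin 5))) (h12 : H1 ≠ H2)
    (hV1 : V0 ≤ H1) (hV2 : V0 ≤ H2) :
    Nat.card {H : Subgroup G // Nonempty (H ≃* alternatingGroup (Fin 5))} = 22 ∧
    ∃ H K : Subgroup G, Nonempty (H ≃* alternatingGroup (Fin 5)) ∧
      Nonempty (K ≃* alternatingGroup (Fin 5)) ∧ (∀ g : G, MulAut.conj g • H ≠ K) ∧
      ∀ L : Subgroup G, Nonempty (L ≃* alternatingGroup (Fin 5)) →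
        ∃ g : G, MulAut.conj g • L = H ∨ MulAut.conj g • L = K := by
  classical
  have hconj : ∀ L : Subgroup G, Nonempty (L ≃* alternatingGroup (Fin 5)) →
        ∃ g : G, MulAut.conj g • L = H1 ∨ MulAut.conj g • L = H2 := by
    intro L hL
    have hL60 := card_of_isA5 hL
    have : Fact (Nat.Prime 2) := ⟨Nat.prime_two⟩
    obtain ⟨K, hK⟩ := Sylow.exists_subgroup_card_pow_prime (G := L) 2 (n := 2)
      (by rw [hL60]; norm_num)
    have hW : Nat.card (K.map L.subtype) = 4 := by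
      rw [Subgroup.card_map_of_injective L.subtype_injective, hK]; norm_num
    have hWL : K.map L.subtype ≤ L := Subgroup.map_subtype_le K
    obtain ⟨g, -, hg⟩ := conj_four_in (H := (⊤ : Subgroup G)) (by
      rw [Subgroup.card_top, h660]; norm_num) le_top le_top hW hV0
    refine ⟨g, eq_or_eq_of_over hN hC hV0 h1 h2 (isA5_smul hL g) h12 hV1 hV2 ?_⟩
    rw [← hg]
    exact Subgroup.pointwise_smul_le_pointwise_smul_iff.mpr hWL
  have hnc : ∀ g : G, MulAut.conj g • H1 ≠ H2 := by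
    intro g hg
    have hfin : Finite H2 := inferInstance
    have hgV : MulAut.conj g • V0 ≤ H2 := by
      rw [← hg]; exact Subgroup.pointwise_smul_le_pointwise_smul_iff.mpr hV1
    obtain ⟨h, hh, hhV⟩ := conj_four_in (H := H2) (by rw [card_of_isA5 h2]; norm_num) hgV hV2
      (by rw [card_smul, hV0]) hV0
    have hmem : h * g ∈ Subgroup.normalizer (V0 : Set G) := by
      rw [Subgroup.mem_normalizer_iff_map_conj_eq]
      rw [← mul_smul, ← map_mul] at hhV
      exact hhV
    have hmem1 : h * g ∈ H1 := normalizer_le_of_isA5 hN hV0 h1 hV1 hmem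
    apply h12
    calc H1 = MulAut.conj (h * g) • H1 := (smul_eq_self_of_mem hmem1).symm
      _ = MulAut.conj h • (MulAut.conj g • H1) := by rw [map_mul, mul_smul]
      _ = MulAut.conj h • H2 := by rw [hg]
      _ = H2 := smul_eq_self_of_mem hh
  refine ⟨?_, H1, H2, h1, h2, hnc, hconj⟩
  have hcl : ∀ H : Subgroup G, Nonempty (H ≃* alternatingGroup (Fin 5)) →
      ({K : Subgroup G | ∃ g : G, MulAut.conj g • H = K} : Set (Subgroup G)).ncard = 11 := by
    intro H hH
    rw [← Nat.card_coe_set_eq]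
    have e1 := card_conjugates H
    rw [normalizer_eq_self h660 (card_of_isA5 hH)] at e1
    have e2 := H.card_mul_index
    rw [card_of_isA5 hH, h660] at e2
    have e3 : H.index = 11 := by omega
    rw [← e3, ← e1]
    rfl
  have hset : ({H : Subgroup G | Nonempty (H ≃* alternatingGroup (Fin 5))} : Set (Subgroup G)) =
      {K : Subgroup G | ∃ g : G, MulAut.conj g • H1 = K} ∪
        {K : Subgroup G | ∃ g : G, MulAut.conj g • H2 = K} := by
    ext L
    constructor
    · intro hL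
      obtain ⟨g, hg | hg⟩ := hconj L hL
      · left
        refine ⟨g⁻¹, ?_⟩
        rw [← hg, map_inv, inv_smul_smul]
      · right
        refine ⟨g⁻¹, ?_⟩
        rw [← hg, map_inv, inv_smul_smul]
    · rintro (⟨g, rfl⟩ | ⟨g, rfl⟩)
      · exact isA5_smul h1 g
      · exact isA5_smul h2 g
  have hdis : Disjoint ({K : Subgroup G | ∃ g : G, MulAut.conj g • H1 = K} : Set (Subgroup G))
        {K : Subgroup G | ∃ g : G, MulAut.conj g • H2 = K} := by
    rw [Set.disjoint_left]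
    rintro K ⟨g, hg⟩ ⟨g', hg'⟩
    apply hnc (g'⁻¹ * g)
    rw [map_mul, mul_smul, hg, ← hg', map_inv, inv_smul_smul]
  have := Set.ncard_union_eq hdis (Set.toFinite _) (Set.toFinite _)
  rw [hcl H1 h1, hcl H2 h2, ← hset, ← Nat.card_coe_set_eq] at this
  exact this

end Cfsg.Agent.Lib.Helper40.L11
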