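import Mathlib
import Cfsg.Agent.S0807
import Cfsg.Agent.S0808
import Cfsg.Agent.Lib.Helper5.LinearCard

/-! S2543 farm, piece PN: in `PSL₂(11)` the normaliser of a subgroup of order 4 has order 12. -/

set_option autoImplicit false

namespace Cfsg.Agent.Lib.Helper40.L11

theorem psl_card {F : Type*} [Field F] [Fintype F] (hF : Fintype.card F = 11) :
    Nat.card (Matrix.ProjectiveSpecialLinearGroup (Fin 2) F) = 660 := by
  have h := Cfsg.Agent.Lib.Helper5.card_PSL2 (F := F)
  rw [hF] at h
  norm_num at h
  omega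

theorem PN_card_klein {F : Type*} [Field F] [Fintype F] (hF : Fintype.card F = 11) :
    Nat.card {V : Subgroup (Matrix.ProjectiveSpecialLinearGroup (Fin 2) F) // IsKleinFour V}
      = 55 := by
  have h := Cfsg.Agent.S0807.result (F := F) hF (by decide)
  rw [psl_card hF] at h
  omega

theorem psl_isKleinFour_of_card {F : Type*} [Field F] [Fintype F] (hF : Fintype.card F = 11)
    (V : Subgroup (Matrix.ProjectiveSpecialLinearGroup (Fin 2) F)) (hV : Nat.card V = 4) :
    IsKleinFour V := by
  have h55 := PN_card_klein hF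
  have hne : Nonempty
      {V : Subgroup (Matrix.ProjectiveSpecialLinearGroup (Fin 2) F) // IsKleinFour V} := by
    by_contra hcon
    rw [not_nonempty_iff] at hcon
    rw [Nat.card_of_isEmpty] at h55
    omega
  obtain ⟨W, hW⟩ := hne
  have hW4 : Nat.card W = 4 := hW.card_four
  have h8 : ¬ 8 ∣ Nat.card (Matrix.ProjectiveSpecialLinearGroup (Fin 2) F) := by
    rw [psl_card hF]; decide
  obtain ⟨g, hg⟩ := Cfsg.Agent.S0808.conj_of_card_four_of_not_eight_dvd h8 W V hW4 hV
  have e : W ≃* V := by
    rw [hg]
    exact W.equivMapOfInjective _ (MulAut.conj g).injective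
  exact ⟨hV, by rw [← Monoid.exponent_eq_of_mulEquiv e]; exact hW.exponent_two⟩

theorem psl_normalizer_four {F : Type*} [Field F] [Fintype F] (hF : Fintype.card F = 11)
    (V : Subgroup (Matrix.ProjectiveSpecialLinearGroup (Fin 2) F)) (hV : Nat.card V = 4) :
    Nat.card (Subgroup.normalizer (V : Set (Matrix.ProjectiveSpecialLinearGroup (Fin 2) F))) = 12 := by
  have : Fact (Nat.Prime 2) := ⟨Nat.prime_two⟩
  have hcard := psl_card hF
  have hfac : (Nat.card (Matrix.ProjectiveSpecialLinearGroup (Fin 2) F)).factorization 2 = 2 := by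
    rw [hcard]; decide +kernel
  have hP4 : ∀ P : Sylow 2 (Matrix.ProjectiveSpecialLinearGroup (Fin 2) F),
      Nat.card (P : Subgroup (Matrix.ProjectiveSpecialLinearGroup (Fin 2) F)) = 4 := by
    intro P
    rw [Sylow.card_eq_multiplicity, hfac]
    norm_num
  let e : Sylow 2 (Matrix.ProjectiveSpecialLinearGroup (Fin 2) F) ≃
      {V : Subgroup (Matrix.ProjectiveSpecialLinearGroup (Fin 2) F) // IsKleinFour V} :=
    { toFun := fun P => ⟨P, psl_isKleinFour_of_card hF P (hP4 P)⟩
      invFun := fun W => Sylow.ofCard W.1 (by rw [hfac]; exact W.2.card_four)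
      left_inv := fun P => by
        apply Sylow.ext
        rfl
      right_inv := fun W => by
        apply Subtype.ext
        rfl }
  have h55 : Nat.card (Sylow 2 (Matrix.ProjectiveSpecialLinearGroup (Fin 2) F)) = 55 := by
    rw [Nat.card_congr e, PN_card_klein hF]
  let P : Sylow 2 (Matrix.ProjectiveSpecialLinearGroup (Fin 2) F) :=
    Sylow.ofCard V (by rw [hfac]; exact hV)
  have h1 := Sylow.card_eq_index_normalizer P
  rw [h55] at h1
  have h1' : 55 = (Subgroup.normalizer
      (V : Set (Matrix.ProjectiveSpecialLinearGroup (Fin 2) F))).index := h1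
  have h2 := Subgroup.card_mul_index
    (Subgroup.normalizer (V : Set (Matrix.ProjectiveSpecialLinearGroup (Fin 2) F)))
  rw [← h1', hcard] at h2
  omega

end Cfsg.Agent.Lib.Helper40.L11
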