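import Mathlib
import Cfsg.Agent.Lib.Helper41.Dickson.A5Gen
import Cfsg.Agent.Lib.Helper41.SL2Basic
import Cfsg.Agent.Lib.Helper9.KleinFour

/-! S2543, piece PX: two different `A₅` in `PSL₂(11)` over a common subgroup of order 4.
Explicit data of helper26 (bulletin #1767). -/

set_option autoImplicit false

namespace Cfsg.Agent.Lib.Helper40.L11

abbrev S11 := Matrix.SpecialLinearGroup (Fin 2) (ZMod 11)

def x1 : S11 := ⟨!![0, 2; 5, 10], by rw [Matrix.det_fin_two_of]; decide⟩
def w1 : S11 := ⟨!![2, 10; 0, 6], by rw [Matrix.det_fin_two_of]; decide⟩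
def x2 : S11 := ⟨!![3, 1; 9, 7], by rw [Matrix.det_fin_two_of]; decide⟩
def w2 : S11 := ⟨!![1, 7; 8, 2], by rw [Matrix.det_fin_two_of]; decide⟩
def ma : S11 := ⟨!![0, 1; 10, 0], by rw [Matrix.det_fin_two_of]; decide⟩
def mb : S11 := ⟨!![1, 3; 3, 10], by rw [Matrix.det_fin_two_of]; decide⟩

theorem r_x1 : x1 ^ 3 = 1 := by decide +kernel
theorem r_w1 : w1 ^ 5 = -1 := by decide +kernel
theorem r_xw1 : (x1 * w1) ^ 2 = -1 := by decide +kernel
theorem r_x2 : x2 ^ 3 = 1 := by decide +kernel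
theorem r_w2 : w2 ^ 5 = 1 := by decide +kernel
theorem r_xw2 : (x2 * w2) ^ 2 = -1 := by decide +kernel
theorem r_a2 : ma ^ 2 = -1 := by decide +kernel
theorem r_b2 : mb ^ 2 = -1 := by decide +kernel
theorem r_ab : ma * mb = -(mb * ma) := by decide +kernel
theorem r_a1 : ma = x1 * w1 := by decide +kernel
theorem r_a2' : ma = x2 * w2 := by decide +kernel
theorem r_b1 : mb = w1 * x1 * x1 * w1 * w1 * x1 * x1 * w1 * w1 := by decide +kernel
theorem r_b2' : mb = x2 * x2 * w2 * w2 * x2 * x2 * w2 * w2 * x2 := by decide +kernel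
theorem r_g : (w1 * (w2 * x2)) ^ 11 = 1 := by decide +kernel


section
variable (F : Type*) [Field F] [CharP F 11]

noncomputable def phi : S11 →* Matrix.ProjectiveSpecialLinearGroup (Fin 2) F :=
  (QuotientGroup.mk' _).comp (Matrix.SpecialLinearGroup.map (ZMod.castHom (dvd_refl 11) F))

theorem phi_neg_one : phi F (-1) = 1 := by
  unfold phi
  rw [MonoidHom.comp_apply, QuotientGroup.mk'_apply, QuotientGroup.eq_one_iff,
    Cfsg.Agent.Lib.Helper41.sl2_mem_center_iff]
  right
  ext i j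
  fin_cases i <;> fin_cases j <;> simp

theorem phi_neg (X : S11) : phi F (-X) = phi F X := by
  have : -X = (-1) * X := by simp
  rw [this, map_mul, phi_neg_one, one_mul]

theorem phi_ne_one (X : S11) (h : (X : Matrix (Fin 2) (Fin 2) (ZMod 11)) 0 1 ≠ 0) :
    phi F X ≠ 1 := by
  intro h1
  unfold phi at h1
  rw [MonoidHom.comp_apply, QuotientGroup.mk'_apply, QuotientGroup.eq_one_iff,
    Cfsg.Agent.Lib.Helper41.sl2_mem_center_iff] at h1
  apply h
  have h2 : ((Matrix.SpecialLinearGroup.map (ZMod.castHom (dvd_refl 11) F) X :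
      Matrix.SpecialLinearGroup (Fin 2) F) : Matrix (Fin 2) (Fin 2) F) 0 1 = 0 := by
    rcases h1 with h1 | h1 <;> rw [h1] <;> simp
  rw [Matrix.SpecialLinearGroup.map_apply_coe, RingHom.mapMatrix_apply, Matrix.map_apply] at h2
  have : Fact (Nat.Prime 11) := ⟨by norm_num⟩
  exact (map_eq_zero_iff _ (RingHom.injective _)).mp h2

theorem two_a5_aux :
    ∃ H1 H2 V0 : Subgroup (Matrix.ProjectiveSpecialLinearGroup (Fin 2) F),
      Nonempty (H1 ≃* alternatingGroup (Fin 5)) ∧ Nonempty (H2 ≃* alternatingGroup (Fin 5)) ∧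
      H1 ≠ H2 ∧ Nat.card V0 = 4 ∧ V0 ≤ H1 ∧ V0 ≤ H2 := by
  have e1 : Nonempty (Subgroup.closure ({phi F x1, phi F w1} : Set _) ≃* alternatingGroup (Fin 5)) :=
    Cfsg.Agent.Lib.Helper41.Dickson.closure_alt_five _ _
      (by rw [← map_pow, r_x1, map_one]) (by rw [← map_pow, r_w1, phi_neg_one])
      (by rw [← map_mul, ← map_pow, r_xw1, phi_neg_one]) (phi_ne_one F _ (by decide +kernel))
  have e2 : Nonempty (Subgroup.closure ({phi F x2, phi F w2} : Set _) ≃* alternatingGroup (Fin 5)) :=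
    Cfsg.Agent.Lib.Helper41.Dickson.closure_alt_five _ _
      (by rw [← map_pow, r_x2, map_one]) (by rw [← map_pow, r_w2, map_one])
      (by rw [← map_mul, ← map_pow, r_xw2, phi_neg_one]) (phi_ne_one F _ (by decide +kernel))
  have hx1 : phi F x1 ∈ Subgroup.closure ({phi F x1, phi F w1} : Set _) :=
    Subgroup.subset_closure (by simp)
  have hw1 : phi F w1 ∈ Subgroup.closure ({phi F x1, phi F w1} : Set _) :=
    Subgroup.subset_closure (by simp)
  have hx2 : phi F x2 ∈ Subgroup.closure ({phi F x2, phi F w2} : Set _) :=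
    Subgroup.subset_closure (by simp)
  have hw2 : phi F w2 ∈ Subgroup.closure ({phi F x2, phi F w2} : Set _) :=
    Subgroup.subset_closure (by simp)
  have hK : IsKleinFour (Subgroup.closure ({phi F ma, phi F mb} : Set _)) := by
    apply Cfsg.Agent.Lib.Helper9.isKleinFour_closure_pair
    · exact phi_ne_one F _ (by decide +kernel)
    · exact phi_ne_one F _ (by decide +kernel)
    · intro h
      have h3 : phi F (ma * mb) = 1 := by
        rw [map_mul, ← h, ← map_mul, ← pow_two, r_a2, phi_neg_one]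
      exact phi_ne_one F _ (by decide +kernel) h3
    · rw [← map_pow, r_a2, phi_neg_one]
    · rw [← map_pow, r_b2, phi_neg_one]
    · rw [← map_mul, ← map_mul, r_ab, phi_neg]
  refine ⟨_, _, Subgroup.closure ({phi F ma, phi F mb} : Set _), e1, e2, ?_, hK.card_four, ?_, ?_⟩
  · intro h
    have hg : phi F (w1 * (w2 * x2)) ∈ Subgroup.closure ({phi F x1, phi F w1} : Set _) := by
      rw [map_mul, map_mul]
      refine mul_mem hw1 ?_
      rw [h]
      exact mul_mem hw2 hx2
    have ho : orderOf (phi F (w1 * (w2 * x2))) = 11 := by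
      have : Fact (Nat.Prime 11) := ⟨by norm_num⟩
      exact orderOf_eq_prime (by rw [← map_pow, r_g, map_one]) (phi_ne_one F _ (by decide +kernel))
    obtain ⟨e⟩ := e1
    have hc : Nat.card (Subgroup.closure ({phi F x1, phi F w1} : Set _)) = 60 := by
      rw [Nat.card_congr e.toEquiv, nat_card_alternatingGroup]
      simp [Nat.factorial]
    have hd := Subgroup.orderOf_dvd_natCard _ hg
    rw [ho, hc] at hd
    norm_num at hd
  · rw [Subgroup.closure_le]
    rintro z (rfl | rfl)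
    · rw [r_a1, map_mul]
      exact mul_mem hx1 hw1
    · rw [r_b1]
      simp only [map_mul]
      exact mul_mem (mul_mem (mul_mem (mul_mem (mul_mem (mul_mem (mul_mem (mul_mem hw1 hx1) hx1) hw1)
        hw1) hx1) hx1) hw1) hw1
  · rw [Subgroup.closure_le]
    rintro z (rfl | rfl)
    · rw [r_a2', map_mul]
      exact mul_mem hx2 hw2
    · rw [r_b2']
      simp only [map_mul]
      exact mul_mem (mul_mem (mul_mem (mul_mem (mul_mem (mul_mem (mul_mem (mul_mem hx2 hx2) hw2) hw2)
        hx2) hx2) hw2) hw2) hx2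

end

theorem psl_two_a5 {F : Type*} [Field F] [Fintype F] (hF : Fintype.card F = 11) :
    ∃ H1 H2 V0 : Subgroup (Matrix.ProjectiveSpecialLinearGroup (Fin 2) F),
      Nonempty (H1 ≃* alternatingGroup (Fin 5)) ∧ Nonempty (H2 ≃* alternatingGroup (Fin 5)) ∧
      H1 ≠ H2 ∧ Nat.card V0 = 4 ∧ V0 ≤ H1 ∧ V0 ≤ H2 := by
  have h11 : CharP F 11 := by
    rw [CharP.charP_iff_prime_eq_zero (by norm_num)]
    have := Nat.cast_card_eq_zero F
    rw [hF] at this
    exact_mod_cast this
  exact two_a5_aux F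

end Cfsg.Agent.Lib.Helper40.L11
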